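import Cfsg.Agent.H105.Dp.Lin2

/-!
# Commuting elements of different prime orders in isometry groups (helper383)

* `no_mul` : `x`, `y` commuting, of prime orders `r`, `s`, with `ee r + ee s > dim V`: then `dim V` is at least the lcm
  of the orders of `|F|` modulo `r` and `s`; `no_mul_gl` : the same without a form;
* `no_thirteen_seven` : `|F| = 2`, `dim V ≤ 16`: no commuting isometries of orders 13 and 7.
-/

set_option autoImplicit false

namespace Cfsg.Agent.H383.Cov.NoMul

open Module Cfsg.Agent.H105.Dp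

variable {F V : Type*} [Field F] [AddCommGroup V] [Module F V] [FiniteDimensional F V]

/-- invariant subspaces of `(x - 1) V` -/
theorem inv_dvd [Finite F] {r : ℕ} (hr : r.Prime) (hrF : (r : F) ≠ 0) {x : V →ₗ[F] V} (hxr : x ^ r = 1)
    {W : Submodule F V} (hW : ∀ v ∈ W, x v ∈ W) (hWr : W ≤ LinearMap.range (x - 1)) :
    orderOf ((Nat.card F : ℕ) : ZMod r) ∣ finrank F W := by
  have hc := isCompl_ker_range hrF hxr
  refine orderOf_dvd_finrank hr hrF (g := x.restrict hW) ?_ ?_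
  · rw [Module.End.pow_restrict]
    apply LinearMap.ext
    intro v
    apply Subtype.ext
    show (x ^ r) (v : V) = v
    rw [hxr]
    rfl
  · intro v hv
    have h1 : x v = v := congrArg Subtype.val hv
    have h2 : (v : V) ∈ LinearMap.ker (x - 1) := by
      rw [LinearMap.mem_ker, LinearMap.sub_apply, sub_eq_zero]
      exact h1
    exact Subtype.ext (Submodule.disjoint_def.1 hc.disjoint _ h2 (hWr v.2))

omit [FiniteDimensional F V] in
theorem range_inv {x y : V →ₗ[F] V} (hxy : x * y = y * x) {v : V} (hv : v ∈ LinearMap.range (x - 1)) :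
    y v ∈ LinearMap.range (x - 1) := by
  obtain ⟨w, rfl⟩ := hv
  refine ⟨y w, ?_⟩
  show x (y w) - y w = y (x w - w)
  rw [map_sub, ← Module.End.mul_apply, hxy, Module.End.mul_apply]

omit [FiniteDimensional F V] in
theorem range_ne {x : V →ₗ[F] V} (hx : x ≠ 1) : LinearMap.range (x - 1) ≠ ⊥ := by
  intro h
  rw [LinearMap.range_eq_bot, sub_eq_zero] at h
  exact hx h

theorem finrank_range_pos {x : V →ₗ[F] V} (hx : x ≠ 1) : 0 < finrank F (LinearMap.range (x - 1)) := by
  rw [Nat.pos_iff_ne_zero]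
  intro h
  exact range_ne hx (Submodule.finrank_eq_zero.1 h)

theorem core [Finite F] {r s a c : ℕ} (hr : r.Prime) (hs : s.Prime) (hrF : (r : F) ≠ 0)
    (hsF : (s : F) ≠ 0) {x y : V →ₗ[F] V} (hxr : x ^ r = 1)
    (hys : y ^ s = 1) (hxy : x * y = y * x)
    (ha : a ≤ finrank F (LinearMap.range (x - 1))) (hc : c ≤ finrank F (LinearMap.range (y - 1)))
    (h1 : finrank F V < a + c) :
    ∃ d : ℕ, d ≠ 0 ∧ d ≤ finrank F V ∧ orderOf ((Nat.card F : ℕ) : ZMod r) ∣ d ∧
      orderOf ((Nat.card F : ℕ) : ZMod s) ∣ d ∧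
      d = finrank F ↥(LinearMap.range (x - 1) ⊓ LinearMap.range (y - 1)) := by
  refine ⟨_, ?_, Submodule.finrank_le _, inv_dvd hr hrF hxr ?_ inf_le_left, inv_dvd hs hsF hys ?_ inf_le_right, rfl⟩
  · have h2 := Submodule.finrank_sup_add_finrank_inf_eq (LinearMap.range (x - 1)) (LinearMap.range (y - 1))
    have h3 := Submodule.finrank_le (LinearMap.range (x - 1) ⊔ LinearMap.range (y - 1))
    omega
  · intro v hv
    exact ⟨range_inv rfl hv.1, range_inv hxy.symm hv.2⟩
  · intro v hv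
    exact ⟨range_inv hxy hv.1, range_inv rfl hv.2⟩

/-- **commuting isometries of different prime orders** -/
theorem no_mul [Finite F] (b : Frm F V) {r s : ℕ} (hr : r.Prime) (hs : s.Prime) (hr2 : r ≠ 2) (hs2 : s ≠ 2)
    (hrF : (r : F) ≠ 0) (hsF : (s : F) ≠ 0) {x y : V →ₗ[F] V} (hx : Iso b x) (hy : Iso b y) (hxr : x ^ r = 1)
    (hys : y ^ s = 1) (hx1 : x ≠ 1) (hy1 : y ≠ 1) (hxy : x * y = y * x)
    (h1 : finrank F V < ee F r + ee F s)
    (h2 : finrank F V < Nat.lcm (orderOf ((Nat.card F : ℕ) : ZMod r)) (orderOf ((Nat.card F : ℕ) : ZMod s))) :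
    False := by
  obtain ⟨d, hd, hdV, hd1, hd2, -⟩ := core hr hs hrF hsF hxr hys hxy
    (Nat.le_of_dvd (finrank_range_pos hx1) (ee_dvd_range b hr hr2 hrF hx hxr))
    (Nat.le_of_dvd (finrank_range_pos hy1) (ee_dvd_range b hs hs2 hsF hy hys)) h1
  have := Nat.le_of_dvd (Nat.pos_of_ne_zero hd) (Nat.lcm_dvd hd1 hd2)
  omega

/-- **commuting linear maps of different prime orders** -/
theorem no_mul_gl [Finite F] {r s : ℕ} (hr : r.Prime) (hs : s.Prime)
    (hrF : (r : F) ≠ 0) (hsF : (s : F) ≠ 0) {x y : V →ₗ[F] V} (hxr : x ^ r = 1)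
    (hys : y ^ s = 1) (hx1 : x ≠ 1) (hy1 : y ≠ 1) (hxy : x * y = y * x)
    (h1 : finrank F V < orderOf ((Nat.card F : ℕ) : ZMod r) + orderOf ((Nat.card F : ℕ) : ZMod s))
    (h2 : finrank F V < Nat.lcm (orderOf ((Nat.card F : ℕ) : ZMod r)) (orderOf ((Nat.card F : ℕ) : ZMod s))) :
    False := by
  obtain ⟨d, hd, hdV, hd1, hd2, -⟩ := core hr hs hrF hsF hxr hys hxy
    (Nat.le_of_dvd (finrank_range_pos hx1) (inv_dvd hr hrF hxr (fun _ hv => range_inv rfl hv) le_rfl))
    (Nat.le_of_dvd (finrank_range_pos hy1) (inv_dvd hs hsF hys (fun _ hv => range_inv rfl hv) le_rfl)) h1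
  have := Nat.le_of_dvd (Nat.pos_of_ne_zero hd) (Nat.lcm_dvd hd1 hd2)
  omega

/-- the two factors of `t ^ 7 - 1` -/
def P1 (y : V →ₗ[F] V) : V →ₗ[F] V := y ^ 3 + y + 1

/-- the two factors of `t ^ 7 - 1` -/
def P2 (y : V →ₗ[F] V) : V →ₗ[F] V := y ^ 3 + y ^ 2 + 1

omit [FiniteDimensional F V] in
theorem P1_apply (y : V →ₗ[F] V) (v : V) : P1 y v = y (y (y v)) + y v + v := by
  unfold P1
  rw [LinearMap.add_apply, LinearMap.add_apply, pow_succ, pow_succ, pow_one]
  rfl

omit [FiniteDimensional F V] in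
theorem P2_apply (y : V →ₗ[F] V) (v : V) : P2 y v = y (y (y v)) + y (y v) + v := by
  unfold P2
  rw [LinearMap.add_apply, LinearMap.add_apply, pow_succ, pow_succ, pow_one]
  rfl

omit [FiniteDimensional F V] in
theorem seven_split (h2 : (2 : F) = 0) {y : V →ₗ[F] V} (hy : y ^ 7 = 1) {v : V} (hv : v ∈ LinearMap.range (y - 1)) :
    P1 y (P2 y v) = 0 := by
  obtain ⟨w, rfl⟩ := hv
  have h : P1 y * P2 y * (y - 1) = y ^ 7 - 1 + (2 : F) • (y ^ 4 - y ^ 3) := by
    unfold P1 P2
    rw [two_smul]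
    noncomm_ring
  rw [h2, zero_smul, add_zero, hy, sub_self] at h
  exact LinearMap.congr_fun h w

omit [FiniteDimensional F V] in
theorem comm_P {y : V →ₗ[F] V} (v : V) : P1 y (P2 y v) = P2 y (P1 y v) := by
  simp only [P1_apply, P2_apply, map_add]
  abel

omit [FiniteDimensional F V] in
theorem fix_of_P {y : V →ₗ[F] V} (hy : y ^ 7 = 1) {v : V} (h1 : P1 y v = 0) (h2 : P2 y v = 0) :
    (y - 1) v = 0 := by
  rw [P1_apply] at h1
  rw [P2_apply] at h2
  have h3 : y (y v) = y v := by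
    have h4 := h2.trans h1.symm
    have h5 := add_right_cancel h4
    exact add_left_cancel h5
  have h6 : (y ^ 6) (y (y v)) = (y ^ 6) (y v) := by rw [h3]
  have h7 : ∀ u, (y ^ 6) (y u) = u := by
    intro u
    have : (y ^ 6 * y) u = u := by rw [← pow_succ, hy]; rfl
    exact this
  rw [h7, h7] at h6
  rw [LinearMap.sub_apply, h6]
  exact sub_self v

/-- **no commuting isometries of orders 13 and 7 in dimension at most 16 over the field of two elements** -/
theorem no_thirteen_seven [Finite F] (h2 : Nat.card F = 2) (b : Frm F V) (hV : finrank F V ≤ 16)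
    {x y : V →ₗ[F] V} (hx : Iso b x) (hy : Iso b y) (hx13 : x ^ 13 = 1)
    (hy7 : y ^ 7 = 1) (hx1 : x ≠ 1) (hy1 : y ≠ 1) (hxy : x * y = y * x) : False := by
  have h20 : (2 : F) = 0 := by
    have hF : Fintype F := Fintype.ofFinite F
    have := Nat.cast_card_eq_zero F
    rwa [← Nat.card_eq_fintype_card, h2] at this
  have h13F : ((13 : ℕ) : F) ≠ 0 := by
    have : ((13 : ℕ) : F) = 1 + 6 * 2 := by norm_num
    rw [this, h20, mul_zero, add_zero]
    exact one_ne_zero
  have h7F : ((7 : ℕ) : F) ≠ 0 := by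
    have : ((7 : ℕ) : F) = 1 + 3 * 2 := by norm_num
    rw [this, h20, mul_zero, add_zero]
    exact one_ne_zero
  have o13 : orderOf ((Nat.card F : ℕ) : ZMod 13) = 12 := by
    rw [h2]
    rw [orderOf_eq_iff (by norm_num)]
    refine ⟨by decide, ?_⟩
    intro m hm hm0
    interval_cases m <;> decide
  have o7 : orderOf ((Nat.card F : ℕ) : ZMod 7) = 3 := by
    rw [h2]
    rw [orderOf_eq_iff (by norm_num)]
    refine ⟨by decide, ?_⟩
    intro m hm hm0
    interval_cases m <;> decide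
  have e13 : ee F 13 = 12 := by unfold ee; rw [o13]; decide
  have e7 : ee F 7 = 6 := by unfold ee; rw [o7]; decide
  have d1 := Nat.le_of_dvd (finrank_range_pos hx1) (ee_dvd_range b (by norm_num) (by norm_num) h13F hx hx13)
  have d2 := Nat.le_of_dvd (finrank_range_pos hy1) (ee_dvd_range b (by norm_num) (by norm_num) h7F hy hy7)
  have d1' := ee_dvd_range b (by norm_num) (by norm_num) h13F hx hx13
  rw [e13] at d1 d1'
  rw [e7] at d2
  obtain ⟨d, hd, hdV, hd1, -, hdW⟩ := core (by norm_num) (by norm_num) h13F h7F hx13 hy7 hxy d1 d2 (by omega)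
  rw [o13] at hd1
  set X := LinearMap.range (x - 1) with hX
  set W := X ⊓ LinearMap.range (y - 1) with hW
  have hXV := Submodule.finrank_le X
  have hWX : W = X := Submodule.eq_of_le_of_finrank_le inf_le_left (by omega)
  have hXy : X ≤ LinearMap.range (y - 1) := by rw [← hWX]; exact inf_le_right
  have hXinv : ∀ v ∈ X, y v ∈ X := fun v hv => range_inv hxy hv
  have hX1 : ∀ v ∈ X, P1 y v ∈ X := fun v hv => by
    rw [P1_apply]
    exact X.add_mem (X.add_mem (hXinv _ (hXinv _ (hXinv _ hv))) (hXinv _ hv)) hv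
  have hX2 : ∀ v ∈ X, P2 y v ∈ X := fun v hv => by
    rw [P2_apply]
    exact X.add_mem (X.add_mem (hXinv _ (hXinv _ (hXinv _ hv))) (hXinv _ (hXinv _ hv))) hv
  -- the two kernels
  have key : ∀ P : V →ₗ[F] V, x * P = P * x → 12 ∣ finrank F ↥(LinearMap.ker P ⊓ X) := by
    intro P hP
    rw [← o13]
    refine inv_dvd (by norm_num) h13F hx13 ?_ inf_le_right
    intro v hv
    refine ⟨?_, range_inv rfl hv.2⟩
    have h3 : P v = 0 := hv.1
    show P (x v) = 0
    rw [← Module.End.mul_apply, ← hP, Module.End.mul_apply, h3, map_zero]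
  have hxyc : Commute x y := hxy
  have k1 := key (P1 y) (((hxyc.pow_right 3).add_right hxyc).add_right (Commute.one_right x))
  have k2 := key (P2 y) (((hxyc.pow_right 3).add_right (hxyc.pow_right 2)).add_right (Commute.one_right x))
  have hfix : ∀ v ∈ X, P1 y v = 0 → P2 y v = 0 → v = 0 := fun v hv h3 h4 =>
    Submodule.disjoint_def.1 (isCompl_ker_range h7F hy7).disjoint v (LinearMap.mem_ker.2 (fix_of_P hy7 h3 h4)) (hXy hv)
  have hdisj : Disjoint (LinearMap.ker (P1 y) ⊓ X) (LinearMap.ker (P2 y) ⊓ X) := by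
    rw [Submodule.disjoint_def]
    intro v hv hv'
    exact hfix v hv.2 hv.1 hv'.1
  have hsum := Submodule.finrank_add_finrank_le_of_disjoint hdisj
  -- one of the polynomials kills X
  have hor : (∀ v ∈ X, P1 y v = 0) ∨ (∀ v ∈ X, P2 y v = 0) := by
    have hz : finrank F ↥(LinearMap.ker (P1 y) ⊓ X) = 0 ∨
        finrank F ↥(LinearMap.ker (P2 y) ⊓ X) = 0 := by omega
    rcases hz with hz | hz
    · right
      intro v hv
      rw [Submodule.finrank_eq_zero] at hz
      have h3 : P2 y v ∈ LinearMap.ker (P1 y) ⊓ X := ⟨seven_split h20 hy7 (hXy hv), hX2 v hv⟩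
      rw [hz] at h3
      exact h3
    · left
      intro v hv
      rw [Submodule.finrank_eq_zero] at hz
      have h3 : P1 y v ∈ LinearMap.ker (P2 y) ⊓ X := by
        refine ⟨?_, hX1 v hv⟩
        show P2 y (P1 y v) = 0
        rw [← comm_P]
        exact seven_split h20 hy7 (hXy hv)
      rw [hz] at h3
      exact h3
  -- the form on X
  have hc := isCompl_ker_range h13F hx13
  have hnd : ∀ u ∈ X, (∀ w ∈ X, b.B w u = 0) → u = 0 := by
    intro u hu h
    refine b.nd u fun w => ?_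
    obtain ⟨k, hk, w', hw', rfl⟩ := Submodule.mem_sup.1 (show w ∈ LinearMap.ker (x - 1) ⊔ X by
      rw [hc.sup_eq_top]; trivial)
    rw [map_add, b.refl _ _ (h w' hw'), add_zero]
    rw [LinearMap.mem_ker, LinearMap.sub_apply, sub_eq_zero] at hk
    exact b.refl _ _ (ort hx hk hu)
  obtain ⟨w₀, hw₀X, hw₀⟩ : ∃ w ∈ X, w ≠ 0 := (Submodule.ne_bot_iff X).1 (range_ne hx1)
  have hyy : ∀ u w, b.B (y u) (y w) = b.B u w := hy
  apply hw₀
  rcases hor with h | h
  · -- `P1 y = 0` on `X`, hence `P2 y = 0`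
    refine hfix w₀ hw₀X (h w₀ hw₀X) (hnd _ (hX2 _ hw₀X) fun u hu => ?_)
    have h3 := h u hu
    rw [P1_apply] at h3
    have h4 : b.B (y (y (y u)) + y u + u) (y (y (y w₀))) = 0 := by rw [h3, map_zero, LinearMap.zero_apply]
    rw [map_add, map_add, LinearMap.add_apply, LinearMap.add_apply, hyy, hyy, hyy, hyy] at h4
    rw [P2_apply, map_add, map_add, ← h4]
    abel
  · refine hfix w₀ hw₀X (hnd _ (hX1 _ hw₀X) fun u hu => ?_) (h w₀ hw₀X)
    have h3 := h u hu
    rw [P2_apply] at h3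
    have h4 : b.B (y (y (y u)) + y (y u) + u) (y (y (y w₀))) = 0 := by rw [h3, map_zero, LinearMap.zero_apply]
    rw [map_add, map_add, LinearMap.add_apply, LinearMap.add_apply, hyy, hyy, hyy, hyy, hyy] at h4
    rw [P1_apply, map_add, map_add, ← h4]
    abel

end Cfsg.Agent.H383.Cov.NoMul
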