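import Cfsg.Agent.H383.Cov.NoMul
import Cfsg.Agent.H105.Dp.Fam
import Cfsg.Agent.H257.El.Part

/-!
# Classical groups without elements of order `r s` (helper383)

`noOrd_psl`, `noOrd_psp`, `noOrd_oplus`, `noOrd_ominus`, `noOrd_POmega` : `r`, `s` primes, the orders `e`, `f` of `q`
modulo `r`, `s` are at least 3, and the dimension is less than `e + f` (`lcm 2 e + lcm 2 f` with a form) and less than
`lcm e f`.
`exists_orderOf_top` : an element of order `k` of `R`, `k` prime to `|O|` and `|R / O : N|`, gives one of `N`.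
-/

set_option autoImplicit false

namespace Cfsg.Agent.H383.Cov.NoMul

open Module Subgroup Cfsg Cfsg.Agent.OrdDiv Cfsg.Agent.H105.Dp Cfsg.Agent.H105
open Cfsg.Agent.LieClassical.OrthCore Cfsg.Agent.LieClassical.OrthFinite Cfsg.Agent.LieClassical.OrthSimple
  Cfsg.Agent.LieClassical.OrthForms

universe w

/-- an element of order `r s` gives commuting elements of orders `r` and `s` -/
theorem noOrd_of {F V : Type*} [Field F] [AddCommGroup V] [Module F V] {G T : Type*} [Group G] [Finite G] [Group T]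
    {A : Subgroup G} [A.Normal] (φ : T ≃* G ⧸ A) (ρ : G →* (V ≃ₗ[F] V)) (hρ : Function.Injective ρ) {r s : ℕ}
    (hr : r.Prime) (hs : s.Prime)
    (h : ∀ g k : G, (ρ g : V →ₗ[F] V) ^ r = 1 → (ρ k : V →ₗ[F] V) ^ s = 1 → (ρ g : V →ₗ[F] V) ≠ 1 →
      (ρ k : V →ₗ[F] V) ≠ 1 → (ρ g : V →ₗ[F] V) * (ρ k : V →ₗ[F] V) = (ρ k : V →ₗ[F] V) * (ρ g : V →ₗ[F] V) →
      False) (z : T) : orderOf z ≠ r * s := by
  intro hz
  obtain ⟨g, hg⟩ := QuotientGroup.mk'_surjective A (φ z)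
  obtain ⟨k, hk⟩ := H257.El.exists_lift (QuotientGroup.mk' A) (z := g) (n := r * s) (by
    rw [hg, MulEquiv.orderOf_eq, hz])
  set x := g ^ k with hx
  have hpow : ∀ (y : G) (j : ℕ), ((ρ y : V ≃ₗ[F] V) : V →ₗ[F] V) ^ j = (ρ (y ^ j) : V →ₗ[F] V) := by
    intro y j
    induction j with
    | zero => rw [pow_zero, pow_zero, map_one]; rfl
    | succ j ih => rw [pow_succ, pow_succ, map_mul, ih]; rfl
  have hone : ∀ y : G, ((ρ y : V ≃ₗ[F] V) : V →ₗ[F] V) = 1 → y = 1 := by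
    intro y hy
    apply hρ
    rw [map_one]
    apply LinearEquiv.ext
    intro v
    exact LinearMap.congr_fun hy v
  have hx1 : x ^ (r * s) = 1 := by rw [← hk]; exact pow_orderOf_eq_one x
  refine h (x ^ s) (x ^ r) ?_ ?_ ?_ ?_ ?_
  · rw [hpow, ← pow_mul, mul_comm, hx1, map_one]; rfl
  · rw [hpow, ← pow_mul, hx1, map_one]; rfl
  · intro h1
    have h2 := orderOf_dvd_of_pow_eq_one (hone _ h1)
    rw [hk] at h2
    have h3 := Nat.le_of_dvd hs.pos h2
    have h4 := hr.one_lt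
    nlinarith [hs.pos]
  · intro h1
    have h2 := orderOf_dvd_of_pow_eq_one (hone _ h1)
    rw [hk] at h2
    have h3 := Nat.le_of_dvd hr.pos h2
    have h4 := hs.one_lt
    nlinarith [hr.pos]
  · show ((ρ (x ^ s) * ρ (x ^ r) : V ≃ₗ[F] V) : V →ₗ[F] V) = ((ρ (x ^ r) * ρ (x ^ s) : V ≃ₗ[F] V) : V →ₗ[F] V)
    rw [← map_mul, ← map_mul, ← pow_add, ← pow_add, add_comm]

section

variable {q r s e f : ℕ}

theorem ee_eq {F : Type*} [Field F] [Fintype F] (hq : Fintype.card F = q) (he : orderOf (q : ZMod r) = e) :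
    ee F r = Nat.lcm 2 e := by
  unfold ee
  rw [Nat.card_eq_fintype_card, hq, he]

theorem noOrd_psl {n : ℕ} {T : Type w} [Group T] (hT : Real (.psl n q) T) (hr : r.Prime) (hs : s.Prime)
    (he : orderOf (q : ZMod r) = e) (hf : orderOf (q : ZMod s) = f) (h3 : 3 ≤ e) (h3' : 3 ≤ f)
    (h1 : n < e + f) (h2 : n < Nat.lcm e f) (z : T) : orderOf z ≠ r * s := by
  obtain ⟨F, _, _, hq, ⟨φ⟩⟩ := hT
  have hrF := natCast_ne_zero hr hq he h3
  have hsF := natCast_ne_zero hs hq hf h3'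
  refine noOrd_of φ (Matrix.SpecialLinearGroup.toLin' (n := Fin n) (R := F)) ?_ hr hs ?_ z
  · exact Matrix.SpecialLinearGroup.toLin'_injective
  · intro g k hg hk hg1 hk1 hgk
    refine no_mul_gl hr hs hrF hsF hg hk hg1 hk1 hgk ?_ ?_
    · rw [finrank_fintype_fun_eq_card, Fintype.card_fin, Nat.card_eq_fintype_card, hq, he, hf]
      exact h1
    · rw [finrank_fintype_fun_eq_card, Fintype.card_fin, Nat.card_eq_fintype_card, hq, he, hf]
      exact h2

theorem noOrd_psp {m : ℕ} {T : Type w} [Group T] (hT : Real (.psp m q) T) (hr : r.Prime) (hs : s.Prime)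
    (he : orderOf (q : ZMod r) = e) (hf : orderOf (q : ZMod s) = f) (h3 : 3 ≤ e) (h3' : 3 ≤ f)
    (h1 : 2 * m < Nat.lcm 2 e + Nat.lcm 2 f) (h2 : 2 * m < Nat.lcm e f) (z : T) : orderOf z ≠ r * s := by
  obtain ⟨F, _, _, hq, ⟨φ⟩⟩ := hT
  have hrF := natCast_ne_zero hr hq he h3
  have hsF := natCast_ne_zero hs hq hf h3'
  have hr5 := five_le hr he h3
  have hs5 := five_le hs hf h3'
  have hS : Cfsg.Agent.H955.IsSp (F := F) (V := Fin m ⊕ Fin m → F) (Cfsg.Agent.ClassicalGeometry.SympBasic.sympBilin m F) :=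
    Cfsg.Agent.H955.isSp_sympBilin m F
  have hfr : finrank F (Fin m ⊕ Fin m → F) = 2 * m := by
    rw [finrank_fintype_fun_eq_card, Fintype.card_sum, Fintype.card_fin]; omega
  have hiso : ∀ h, Iso (frmSp hS) (SzSp.rho m F h : (Fin m ⊕ Fin m → F) →ₗ[F] (Fin m ⊕ Fin m → F)) := by
    intro h x y
    have : SzSp.rho m F h ∈ Cfsg.Agent.H955.IsoB (Cfsg.Agent.ClassicalGeometry.SympBasic.sympBilin m F) := by
      rw [← SzSp.rho_range]; exact ⟨h, rfl⟩
    exact this x y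
  refine noOrd_of φ (SzSp.rho m F) SzSp.rho_injective hr hs ?_ z
  intro g k hg hk hg1 hk1 hgk
  refine no_mul (frmSp hS) hr hs (by omega) (by omega) hrF hsF (hiso g) (hiso k) hg hk hg1 hk1 hgk ?_ ?_
  · rw [hfr, ee_eq hq he, ee_eq hq hf]
    exact h1
  · rw [hfr, Nat.card_eq_fintype_card, hq, he, hf]
    exact h2

/-- the groups `PΩ` -/
theorem noOrd_POmega' {ι : Type} [Fintype ι] [DecidableEq ι] {F : Type} [Field F] [Finite F]
    {Q : QuadraticForm F (ι → F)} (hQ : Nondeg Q) (hd : 5 ≤ Fintype.card ι) {T : Type w} [Group T]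
    {qf : (ι → F) → F} (hqf : ⇑Q = qf) (φ : T ≃* Cfsg.POmega F qf) (hr : r.Prime) (hs : s.Prime)
    (h : ∀ x y : (ι → F) →ₗ[F] (ι → F), Iso (frmQ hQ) x → Iso (frmQ hQ) y → x ^ r = 1 → y ^ s = 1 → x ≠ 1 → y ≠ 1 →
      x * y = y * x → False) (z : T) : orderOf z ≠ r * s := by
  subst hqf
  have hG : Cfsg.Agent.LieClassical.OrthTrans.Good Q := good_of_finite hQ (by rwa [Module.finrank_fintype_fun_eq_card])
  have hfinV : Finite ((ι → F) ≃ₗ[F] (ι → F)) :=
    Finite.of_injective (fun e : (ι → F) ≃ₗ[F] (ι → F) => (e : (ι → F) → (ι → F))) DFunLike.coe_injective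
  have hiso : ∀ h : E Q, Iso (frmQ hQ) ((E Q).subtype h : (ι → F) →ₗ[F] (ι → F)) := by
    intro h x y
    exact polar_map (E_le_O (Q := Q) h.2) x y
  refine noOrd_of (φ.trans (quotientCenterCongr ((omegaEquiv Q).trans (MulEquiv.subgroupCongr hG.commutator_eq_E))))
    (E Q).subtype (Subgroup.subtype_injective _) hr hs ?_ z
  intro g k hg hk hg1 hk1 hgk
  exact h _ _ (hiso g) (hiso k) hg hk hg1 hk1 hgk

theorem noOrd_POmega {ι : Type} [Fintype ι] [DecidableEq ι] {F : Type} [Field F] [Fintype F]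
    {Q : QuadraticForm F (ι → F)} (hQ : Nondeg Q) (hd : 5 ≤ Fintype.card ι) {T : Type w} [Group T]
    {qf : (ι → F) → F} (hqf : ⇑Q = qf) (φ : T ≃* Cfsg.POmega F qf) (hq : Fintype.card F = q)
    (hr : r.Prime) (hs : s.Prime)
    (he : orderOf (q : ZMod r) = e) (hf : orderOf (q : ZMod s) = f) (h3 : 3 ≤ e) (h3' : 3 ≤ f)
    (h1 : Fintype.card ι < Nat.lcm 2 e + Nat.lcm 2 f) (h2 : Fintype.card ι < Nat.lcm e f) (z : T) :
    orderOf z ≠ r * s := by
  have hrF := natCast_ne_zero hr hq he h3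
  have hsF := natCast_ne_zero hs hq hf h3'
  have hr5 := five_le hr he h3
  have hs5 := five_le hs hf h3'
  refine noOrd_POmega' hQ hd hqf φ hr hs ?_ z
  intro x y hx hy hxr hys hx1 hy1 hxy
  refine no_mul (frmQ hQ) hr hs (by omega) (by omega) hrF hsF hx hy hxr hys hx1 hy1 hxy ?_ ?_
  · rw [finrank_fintype_fun_eq_card, ee_eq hq he, ee_eq hq hf]
    exact h1
  · rw [finrank_fintype_fun_eq_card, Nat.card_eq_fintype_card, hq, he, hf]
    exact h2

theorem noOrd_oplus {m : ℕ} {T : Type w} [Group T] (hT : Real (.oplus m q) T) (hm : 3 ≤ m) (hr : r.Prime)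
    (hs : s.Prime) (he : orderOf (q : ZMod r) = e) (hf : orderOf (q : ZMod s) = f) (h3 : 3 ≤ e) (h3' : 3 ≤ f)
    (h1 : 2 * m < Nat.lcm 2 e + Nat.lcm 2 f) (h2 : 2 * m < Nat.lcm e f) (z : T) : orderOf z ≠ r * s := by
  obtain ⟨F, _, _, hq, ⟨φ⟩⟩ := hT
  have hfr : Fintype.card (Fin m ⊕ Fin m) = 2 * m := by
    rw [Fintype.card_sum, Fintype.card_fin]; omega
  refine noOrd_POmega (nondeg_plusForm m F) (by omega) (coe_plusForm m F) φ hq hr hs he hf h3 h3' ?_ ?_ z
  · rw [hfr]; exact h1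
  · rw [hfr]; exact h2

theorem noOrd_ominus {m : ℕ} {T : Type w} [Group T] (hT : Real (.ominus m q) T) (hm : 3 ≤ m) (hr : r.Prime)
    (hs : s.Prime) (he : orderOf (q : ZMod r) = e) (hf : orderOf (q : ZMod s) = f) (h3 : 3 ≤ e) (h3' : 3 ≤ f)
    (h1 : 2 * m < Nat.lcm 2 e + Nat.lcm 2 f) (h2 : 2 * m < Nat.lcm e f) (z : T) : orderOf z ≠ r * s := by
  obtain ⟨F, _, _, a, b, hq, hab, ⟨φ⟩⟩ := hT
  have hfr : Fintype.card ((Fin (m - 1) ⊕ Fin (m - 1)) ⊕ Fin 2) = 2 * m := by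
    rw [Fintype.card_sum, Fintype.card_sum, Fintype.card_fin, Fintype.card_fin]; omega
  refine noOrd_POmega (nondeg_minusForm (m - 1) F a b hab) (by omega) (coe_minusForm (m - 1) F a b) φ hq hr hs he hf
    h3 h3' ?_ ?_ z
  · rw [hfr]; exact h1
  · rw [hfr]; exact h2

end

/-- **descent of an element** to the simple group at the top -/
theorem exists_orderOf_top {R : Type*} [Group R] [Finite R] {r : ℕ} {O : Subgroup R} [O.Normal]
    {N : Subgroup (R ⧸ O)} (h : H257.El.Top R r O N) {c : R} {k : ℕ} (hc : orderOf c = k)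
    (h1 : k.Coprime (Nat.card O)) (h2 : k.Coprime N.index) : ∃ z : N, orderOf z = k := by
  have hN := h.normal
  set g : R ⧸ O := QuotientGroup.mk' O c with hg
  have hgk : orderOf g = k := by
    apply Nat.dvd_antisymm
    · rw [← hc]; exact orderOf_map_dvd _ _
    · -- `c ^ (orderOf g) ∈ O`
      have h3 : c ^ orderOf g ∈ O := by
        refine (QuotientGroup.eq_one_iff _).1 ?_
        exact (map_pow (QuotientGroup.mk' O) c _).trans (pow_orderOf_eq_one g)
      have h4 : orderOf (c ^ orderOf g) ∣ Nat.card O := Subgroup.orderOf_dvd_natCard _ h3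
      have h5 : orderOf (c ^ orderOf g) ∣ k := by rw [← hc]; exact orderOf_pow_dvd _
      have h6 : orderOf (c ^ orderOf g) = 1 := Nat.eq_one_of_dvd_coprimes h1 h5 h4
      rw [orderOf_eq_one_iff] at h6
      rw [← hc]
      exact orderOf_dvd_of_pow_eq_one h6
  have hgN : g ∈ N := by
    have h3 : orderOf (QuotientGroup.mk' N g) ∣ k := by rw [← hgk]; exact orderOf_map_dvd _ _
    have h4 : orderOf (QuotientGroup.mk' N g) ∣ N.index := orderOf_dvd_natCard _
    have h5 := Nat.eq_one_of_dvd_coprimes h2 h3 h4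
    rw [orderOf_eq_one_iff] at h5
    exact (QuotientGroup.eq_one_iff _).1 h5
  exact ⟨⟨g, hgN⟩, by rw [Subgroup.orderOf_mk, hgk]⟩

end Cfsg.Agent.H383.Cov.NoMul
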