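import Cfsg.Agent.H383.Cov.TenTwo

/-!
# S2499: the group `Ω⁺₁₆(2)`, elements and frame (helper383)

* `exNB` : elements `neg a + neg e` with a block of S5948 type; `exPP` : `pos 5 + pos 3` with its order;
* `noTwo_of_data₂` : the frame when only `A` is covered by the overgroup theorem;
* `Inc.map` : incompatible classes and quotients.
-/

set_option autoImplicit false
set_option linter.unusedSectionVars false
set_option linter.style.haveILetI false

namespace Cfsg.Agent.H383.Cov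

open Module Cfsg Cfsg.Geo QuadraticMap
open Cfsg.Agent.LieClassical.OrthCore Cfsg.Agent.LieClassical.OrthForms
open Cfsg.Agent.H182.Sign
open Cfsg.Agent.H278.Cov (Red Ext Num Av Inc NoTwo noTwo_of_three)
open Cfsg.Agent.H689 (Ppd exists_ppd)
open scoped MatrixGroups Matrix

/-- incompatible classes and quotients -/
theorem inc_map {G G' : Type*} [Group G] [Group G'] {x y : G} (h : Inc x y) (f : G →* G')
    (hf : Function.Surjective f) : Inc (f x) (f y) := by
  intro L hL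
  have hne : L.comap f ≠ ⊤ := by
    intro hc
    apply hL
    rw [eq_top_iff]
    intro z _
    obtain ⟨w, rfl⟩ := hf z
    have : w ∈ L.comap f := by rw [hc]; trivial
    exact this
  rcases h _ hne with h1 | h1
  · left
    intro g hg
    obtain ⟨g', rfl⟩ := hf g
    exact h1 g' (by change f (g' * x * g'⁻¹) ∈ L; simpa using hg)
  · right
    intro g hg
    obtain ⟨g', rfl⟩ := hf g
    exact h1 g' (by change f (g' * y * g'⁻¹) ∈ L; simpa using hg)

section

variable {F : Type} [Field F] [Fintype F] {ι : Type} [Fintype ι] [DecidableEq ι]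

theorem exNB {Q : QuadraticForm F (ι → F)} {a e m M N : ℕ} (hQ : Sg Q m 1)
    (h5 : 5 ≤ Fintype.card ι) (hm : a + e = m) (ha : a ≠ 0) (he : e ≠ 0)
    (hM : M ∣ Fintype.card F ^ a + 1) (hMo : Odd M)
    (hM1 : ∀ j, 1 ≤ j → j < 2 * a → M.Coprime (Fintype.card F ^ j - 1))
    (hN : N ∣ Fintype.card F ^ e + 1) (hNo : Odd N) (hN1 : ∀ j, 1 ≤ j → j < 2 * e → ¬ N ∣ Fintype.card F ^ j - 1)
    (hM2 : M ≠ 1) (hc : M.Coprime N) :
    ∃ A : GL ι F, A ∈ omegaGL ⇑Q ∧ Odd (orderOf A) ∧ (∃ j, orderOf (A ^ j) = M ∧ Blk (2 * a) (A ^ j)) ∧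
      Dims A {0, 2 * e, 2 * a, 2 * m} := by
  obtain ⟨L, _, _, _, Q₁, u, s1, s2, s3, s4, s5⟩ := exists_negN (F := F) ha hM
  obtain ⟨L', _, _, _, Q₂, u', t1, t2, t3, t4, t5⟩ := exists_negN (F := F) he hN
  have hfL : FiniteDimensional F L := Module.Finite.of_finite
  have hfL' : FiniteDimensional F L' := Module.Finite.of_finite
  have hs := s1.prod t1
  rw [hm, show (-1 : ℤ) * -1 = 1 by norm_num] at hs
  have hN11 : N ≠ 1 := by
    rintro rfl
    exact hN1 1 le_rfl (by omega) (one_dvd _)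
  have p1 : (LinearMap.mulLeft F u : Module.End F L) ^ M = 1 := by
    rw [mulLeft_pow, mulLeft_eq_one, ← s3, pow_orderOf_eq_one]
  have p2 : (LinearMap.mulLeft F u' : Module.End F L') ^ N = 1 := by
    rw [mulLeft_pow, mulLeft_eq_one, ← t3, pow_orderOf_eq_one]
  have hpow : ((LinearMap.mulLeft F u).prodMap (LinearMap.mulLeft F u') : Module.End F (L × L')) ^ (M * N) = 1 := by
    rw [pair_pow, pow_mul, p1, one_pow, mul_comm, pow_mul, p2, one_pow]
    rfl
  obtain ⟨A, hA, hsim⟩ := exists_sim hQ h5 hs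
    (x := (LinearMap.mulLeft F u).prodMap (LinearMap.mulLeft F u')) (M := M * N)
    (by
      intro v
      rw [prodForm_apply, prodForm_apply]
      change Q₁ (u * v.1) + Q₂ (u' * v.2) = _
      rw [s5, t5])
    (hMo.mul hNo) hpow
  refine ⟨A, hA, ?_, ?_, ?_⟩
  · refine Odd.of_dvd_nat (hMo.mul hNo) ?_
    rw [hsim.orderOf_eq]
    exact orderOf_dvd_of_pow_eq_one hpow
  · obtain ⟨j, hj1, hj2⟩ := exists_pow_left p1 p2 hc
    have h1 := hsim.pow j
    rw [pair_pow, hj1, hj2] at h1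
    have ho : orderOf (A ^ j) = M := by
      rw [h1.orderOf_eq, ← s3, ← orderOf_mulLeft (F := F) u]
      apply Nat.dvd_antisymm
      · apply orderOf_dvd_of_pow_eq_one
        rw [pair_pow, pow_orderOf_eq_one, one_pow]
        rfl
      · apply orderOf_dvd_of_pow_eq_one
        have h1 := pow_orderOf_eq_one ((LinearMap.mulLeft F u : Module.End F L).prodMap (1 : Module.End F L'))
        rw [pair_pow] at h1
        apply LinearMap.ext
        intro v
        exact congrArg (fun f : Module.End F (L × L') => (f (v, 0)).1) h1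
    refine ⟨j, ho, ⟨?_, ?_, ?_⟩⟩
    · rw [ho, Nat.card_eq_fintype_card]
      exact coprime_q (by omega) hM
    · intro i hi hi6
      rw [ho, Nat.card_eq_fintype_card]
      exact hM1 i hi hi6
    · rw [h1.rk, range_pair (mulLeft_free (ne_one_of_order s3 hM2)), s2]
  · apply hsim.dims
    intro W hW
    obtain ⟨s, hs', t, ht', hst⟩ := pair_dims p1 p2 hc (mulLeft_free (ne_one_of_order s3 hM2))
      (Ten.irr_case s2 s4 (by
        intro j hj hjl hd
        rw [s3] at hd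
        exact hM2 (Nat.Coprime.eq_one_of_dvd (hM1 j hj hjl) hd)))
      (Ten.irr_case t2 t4 (by rw [t3]; exact hN1)) hW
    rw [hst]
    simp only [Set.mem_insert_iff, Set.mem_singleton_iff] at hs' ht' ⊢
    omega

theorem exPP {Q : QuadraticForm F (ι → F)} {m c₁ c₂ r₁ r₂ : ℕ} (hQ : Sg Q m 1)
    (h5 : 5 ≤ Fintype.card ι) (hm : c₁ + c₂ = m) (h1 : 3 ≤ c₁) (h2 : 3 ≤ c₂) (ho : Odd c₁)
    (hr₁ : Ppd (Fintype.card F) c₁ r₁) (hr₂ : Ppd (Fintype.card F) c₂ r₂) (hne : c₁ ≠ c₂) :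
    ∃ C : GL ι F, C ∈ omegaGL ⇑Q ∧ orderOf C = r₁ * r₂ ∧
      (∃ P : Polynomial F, Odd (finrank F (LinearMap.ker (Matrix.toLin'
        (Polynomial.aeval (C : Matrix ι ι F) P))))) ∧
      Dims C {d | ∃ s t : ℕ, s ≤ 2 ∧ t ≤ 2 ∧ d = c₁ * s + c₂ * t} := by
  have hne' : r₁ ≠ r₂ := by
    rintro rfl
    apply hne
    exact Nat.dvd_antisymm ((hr₁.iff c₂).1 ((hr₂.iff c₂).2 dvd_rfl)) ((hr₂.iff c₁).1 ((hr₁.iff c₁).2 dvd_rfl))
  have hco : r₁.Coprime r₂ := (Nat.coprime_primes hr₁.prime hr₂.prime).2 hne'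
  have hro₁ : Odd r₁ := ppd_odd hr₁ h1
  have hro₂ : Odd r₂ := ppd_odd hr₂ h2
  obtain ⟨K, _, _, _, Q₁, u, s1, s2, s3, s4, s5⟩ := exists_posN (F := F) (k := c₁) (by omega)
    ((hr₁.iff c₁).2 dvd_rfl)
  obtain ⟨K', _, _, _, Q₂, u', t1, t2, t3, t4, t5⟩ := exists_posN (F := F) (k := c₂) (by omega)
    ((hr₂.iff c₂).2 dvd_rfl)
  have hf : FiniteDimensional F K := Module.Finite.of_finite
  have hf' : FiniteDimensional F K' := Module.Finite.of_finite
  have hs := s1.prod t1
  rw [hm, show (1 : ℤ) * 1 = 1 by norm_num] at hs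
  have p1 := dg_pow_eq_one (F := F) s3
  have p2 := dg_pow_eq_one (F := F) t3
  have hpow : ((dg F u).prodMap (dg F u') : Module.End F ((K × K) × (K' × K'))) ^ (r₁ * r₂) = 1 := by
    rw [pair_pow, pow_mul, p1, one_pow, mul_comm, pow_mul, p2, one_pow]
    rfl
  obtain ⟨C, hC, hsim⟩ := exists_sim hQ h5 hs
    (x := (dg F u).prodMap (dg F u')) (M := r₁ * r₂)
    (by
      intro v
      rw [prodForm_apply, prodForm_apply]
      change Q₁ (dg F u v.1) + Q₂ (dg F u' v.2) = _
      rw [s5 u s4, t5 u' t4])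
    (hro₁.mul hro₂) hpow
  refine ⟨C, hC, ?_, ⟨minpoly F u, ?_⟩, ?_⟩
  · rw [hsim.orderOf_eq]
    apply Nat.dvd_antisymm (orderOf_dvd_of_pow_eq_one hpow)
    have h3 := pow_orderOf_eq_one ((dg F u).prodMap (dg F u') : Module.End F ((K × K) × (K' × K')))
    rw [pair_pow] at h3
    apply Nat.Coprime.mul_dvd_of_dvd_of_dvd hco
    · rw [← s3, ← Ten.orderOf_dg (F := F) u]
      apply orderOf_dvd_of_pow_eq_one
      apply LinearMap.ext
      intro v
      exact congrArg (fun f : Module.End F ((K × K) × (K' × K')) => (f (v, 0)).1) h3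
    · rw [← t3, ← Ten.orderOf_dg (F := F) u']
      apply orderOf_dvd_of_pow_eq_one
      apply LinearMap.ext
      intro v
      exact congrArg (fun f : Module.End F ((K × K) × (K' × K')) => (f (0, v)).2) h3
  · rw [hsim.ker, aeval_pair, ker_pair, ker_dg_minpoly (by rw [s2]; exact ho) s4
      (sq_ne_one s3 hro₁ hr₁.prime.one_lt.ne'), s2]
    have hu : u ^ r₁ = 1 := by rw [← s3]; exact pow_orderOf_eq_one u
    have key : u' ^ r₁ ≠ 1 := by
      intro h
      have h3 := orderOf_dvd_of_pow_eq_one h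
      rw [t3] at h3
      have h4 := Nat.dvd_gcd h3 dvd_rfl
      rw [hco] at h4
      exact hr₂.prime.one_lt.ne' (Nat.dvd_one.1 h4)
    rw [ker_dg_of_ne, add_zero]
    · exact ho
    · exact fun h => key (minpoly_dvd_pow hu h)
    · intro h
      apply key
      have h3 := minpoly_dvd_pow hu h
      rw [_root_.inv_pow] at h3
      exact inv_eq_one.1 h3
  · apply hsim.dims
    intro W hW
    obtain ⟨s, hs', t, ht', hst⟩ := pair_dims (S₁ := {d | ∃ s : ℕ, s ≤ 2 ∧ d = c₁ * s})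
      (S₂ := {d | ∃ s : ℕ, s ≤ 2 ∧ d = c₂ * s}) p1 p2 hco
      (dg_free (ne_one_of_order s3 hr₁.prime.one_lt.ne'))
      (by
        intro W hW
        obtain ⟨s, hs⟩ := dims_dg s3 hr₁ (by omega) hW
        refine ⟨s, ?_, hs⟩
        have h3 := Submodule.finrank_le W
        rw [Module.finrank_prod, s2, hs] at h3
        exact Nat.le_of_mul_le_mul_left (by omega : c₁ * s ≤ c₁ * 2) (by omega))
      (by
        intro W hW
        obtain ⟨s, hs⟩ := dims_dg t3 hr₂ (by omega) hW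
        refine ⟨s, ?_, hs⟩
        have h3 := Submodule.finrank_le W
        rw [Module.finrank_prod, t2, hs] at h3
        exact Nat.le_of_mul_le_mul_left (by omega : c₂ * s ≤ c₂ * 2) (by omega)) hW
    obtain ⟨s', h3, h4⟩ := hs'
    obtain ⟨t', h5, h6⟩ := ht'
    exact ⟨s', t', h3, h5, by rw [hst, h4, h6]⟩

/-- **The frame with one overgroup theorem**: `A` is incompatible with `B` (parity) and with `C` (odd block). -/
theorem inc_of_data [Nonempty ι] {Q : (ι → F) → F} (hQ : IsNondegenerateQuadraticForm Q) (og : OgO Q)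
    {A B C : Omega F Q} {a b i j : ℕ} (ha : 1 ≤ a) (hb : 1 ≤ b)
    (hpar : Even a ∧ Odd b ∨ Odd a ∧ Even b)
    (hgA : ∀ r : ℕ, r.Prime → r ∣ Nat.gcd (Fintype.card ι) (2 * a) → r = 2)
    (hAi : NumEl a (emb Q A ^ i)) (hBj : Blk (2 * b) (emb Q B ^ j)) (hBo : Odd (orderOf (emb Q B ^ j)))
    (hBd : orderOf (emb Q B ^ j) ∣ Nat.card F ^ b + 1)
    {SA SB SC : Set ℕ} (dA : Dims (emb Q A) SA) (dB : Dims (emb Q B) SB)
    (dC : Dims (emb Q C) SC) (hAB : ∀ d, 0 < d → d < Fintype.card ι → d ∈ SA → d ∈ SB → False)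
    (hAC : ∀ d, 0 < d → d < Fintype.card ι → d ∈ SA → d ∈ SC → False)
    (hCo : Odd (orderOf (emb Q C))) (P : Polynomial F)
    (hker : Odd (finrank F (LinearMap.ker (Matrix.toLin' (Polynomial.aeval (emb Q C : Matrix ι ι F) P))))) :
    Inc A B ∧ Inc A C := by
  have key : ∀ H : Subgroup (GL ι F), H ≤ omegaGL Q → H ≠ omegaGL Q → ∀ g : GL ι F,
      g * emb Q A * g⁻¹ ∈ H → Red H ∨ ∃ E : Subalgebra F (Matrix ι ι F), IsFieldSubalgebra 2 E ∧
        H ≤ subalgebraNormalizer E := by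
    intro H hle hne g hgx
    rcases og _ H hle hne _ (H.pow_mem hgx i) (by rw [pow_conj]; exact (hAi.conj g).num) with h | ⟨r, E, hr, hrd, hE, hN⟩
    · exact Or.inl h
    · obtain rfl := hgA r hr hrd
      exact Or.inr ⟨E, hE, hN⟩
  refine ⟨inc_of fun H hle hne g g' h1 h2 => ?_, inc_of fun H hle hne g g' h1 h2 => ?_⟩
  · by_cases hR : Red H
    · exact red_dims hR h1 h2 (dA.conj g) (dB.conj g') hAB
    obtain ⟨E, hE, hN⟩ := (key H hle hne g h1).resolve_left hR
    have hiso : H ≤ isometryGroup F Q := hle.trans (omegaGL_le Q)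
    have hx := H.pow_mem h1 i
    have hy := H.pow_mem h2 j
    rw [pow_conj] at hx hy
    have nx := hAi.conj g
    have ho : Odd (orderOf (g' * emb Q B ^ j * g'⁻¹)) := by rw [orderOf_conj]; exact hBo
    have hd : orderOf (g' * emb Q B ^ j * g'⁻¹) ∣ Nat.card F ^ b + 1 := by rw [orderOf_conj]; exact hBd
    rcases hpar with ⟨he, ho'⟩ | ⟨ho', he⟩
    · exact parity hQ hiso hR hE hN hx hy ha hb he ho' nx.odd ho nx.dvd hd nx.blk (hBj.conj g')
    · exact parity hQ hiso hR hE hN hy hx hb ha he ho' ho nx.odd hd nx.dvd (hBj.conj g') nx.blk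
  · rcases key H hle hne g h1 with hR | ⟨E, hE, hN⟩
    · exact red_dims hR h1 h2 (dA.conj g) (dC.conj g') hAC
    · have h3 := kill hE (hN h2) (by rw [orderOf_conj]; exact Nat.coprime_two_right.2 hCo) P
      rw [ker_conj] at h3
      exact (Nat.not_even_iff_odd.2 hker) (even_iff_two_dvd.2 h3)

end

end Cfsg.Agent.H383.Cov
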