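import Cfsg.Agent.H383.Cov.NoOrd
import Cfsg.Agent.H383.Cov.SixEl
import Cfsg.Agent.H455.Cov.Tool
import Cfsg.Agent.S0293

/-!
# S2499: the group `PΩ⁺₁₆(2)` (helper383)

`noTwo_sixteen`: elements `neg 7 + neg 1`, `neg 6 + neg 2`, `pos 5 + pos 3`. Inputs: S5948, the table of orders and the
classification.
-/

set_option autoImplicit false
set_option linter.unusedSectionVars false
set_option linter.style.haveILetI false

namespace Cfsg.Agent.H383.Cov.Six

open Module Subgroup Cfsg Cfsg.Geo Cfsg.Agent.OrdDiv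
open Cfsg.Agent.LieClassical.OrthCore Cfsg.Agent.LieClassical.OrthForms Cfsg.Agent.LieClassical.OrthFinite
  Cfsg.Agent.LieClassical.OrthSimple
open Cfsg.Agent.H278.Cov (Red Ext Num Av Inc NoTwo noTwo_of_three)
open Cfsg.Agent.H659.CovCore (S5948Stmt)
open Cfsg.Agent.H689 (Ppd exists_ppd)
open Cfsg.Agent.H257.El (Top SitP okPair okPow_spec surv)
open scoped MatrixGroups Matrix

universe u

/-! ### numbers -/

/-- the order -/
def n16 : ℕ := 2 ^ 56 * (2 ^ 8 - 1) * ((2 ^ 2 - 1) * (2 ^ 4 - 1) * (2 ^ 6 - 1) * (2 ^ 8 - 1) * (2 ^ 10 - 1) *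
  (2 ^ 12 - 1) * (2 ^ 14 - 1))

/-- its factorisation -/
def l16 : List (ℕ × ℕ) :=
  [(2, 56), (3, 10), (5, 4), (7, 2), (11, 1), (13, 1), (17, 2), (31, 1), (43, 1), (127, 1)]

theorem valid16 : valid l16 n16 = true := by decide +kernel

theorem surv16 : surv n16 l16 13 [31] =
    [.psl 6 4, .psl 7 4, .psp 6 2, .psp 7 2, .oplus 7 2, .ominus 6 2, .ominus 7 2] := by decide +kernel

theorem o2_31 : orderOf ((2 : ℕ) : ZMod 31) = 5 := by
  rw [orderOf_eq_iff (by norm_num)]
  exact ⟨by decide, fun m hm hm0 => by interval_cases m <;> decide⟩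

theorem o2_7 : orderOf ((2 : ℕ) : ZMod 7) = 3 := by
  rw [orderOf_eq_iff (by norm_num)]
  exact ⟨by decide, fun m hm hm0 => by interval_cases m <;> decide⟩

theorem o2_13 : orderOf ((2 : ℕ) : ZMod 13) = 12 := by
  rw [orderOf_eq_iff (by norm_num)]
  exact ⟨by decide, fun m hm hm0 => by interval_cases m <;> decide⟩

theorem o4_31 : orderOf ((4 : ℕ) : ZMod 31) = 5 := by
  rw [orderOf_eq_iff (by norm_num)]
  exact ⟨by decide, fun m hm hm0 => by interval_cases m <;> decide⟩

theorem o4_7 : orderOf ((4 : ℕ) : ZMod 7) = 3 := by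
  rw [orderOf_eq_iff (by norm_num)]
  exact ⟨by decide, fun m hm hm0 => by interval_cases m <;> decide⟩

/-- the possible simple groups at the top have no elements of order 217 -/
theorem no217 {g : Grp} (hg : g ∈ surv n16 l16 13 [31]) {N : Type u} [Group N] (hN : Real g N) (z : N) :
    orderOf z ≠ 31 * 7 := by
  have p31 : (31 : ℕ).Prime := by norm_num
  have p7 : (7 : ℕ).Prime := by norm_num
  rw [surv16] at hg
  simp only [List.mem_cons, List.not_mem_nil, or_false] at hg
  rcases hg with rfl | rfl | rfl | rfl | rfl | rfl | rfl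
  · exact NoMul.noOrd_psl hN p31 p7 o4_31 o4_7 (by norm_num) (by norm_num) (by norm_num) (by decide) z
  · exact NoMul.noOrd_psl hN p31 p7 o4_31 o4_7 (by norm_num) (by norm_num) (by norm_num) (by decide) z
  · exact NoMul.noOrd_psp hN p31 p7 o2_31 o2_7 (by norm_num) (by norm_num) (by decide) (by decide) z
  · exact NoMul.noOrd_psp hN p31 p7 o2_31 o2_7 (by norm_num) (by norm_num) (by decide) (by decide) z
  · exact NoMul.noOrd_oplus hN (by norm_num) p31 p7 o2_31 o2_7 (by norm_num) (by norm_num) (by decide) (by decide) z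
  · exact NoMul.noOrd_ominus hN (by norm_num) p31 p7 o2_31 o2_7 (by norm_num) (by norm_num) (by decide) (by decide) z
  · exact NoMul.noOrd_ominus hN (by norm_num) p31 p7 o2_31 o2_7 (by norm_num) (by norm_num) (by decide) (by decide) z

/-! ### the engine -/

/-- **no proper subgroup contains elements of orders 13 and 217** -/
theorem false_of_mem (tab : OrderTable.{u}) (known : H257.El.Known.{u}) {T : Type u} [Group T] [Finite T]
    (hT : Nat.card T = n16) (h31 : ∀ z : T, orderOf z ≠ 13 * 31) (h7 : ∀ z : T, orderOf z ≠ 13 * 7)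
    {R : Subgroup T} (hR : R ≠ ⊤) {x y : T} (hx : x ∈ R) (hy : y ∈ R) (hx13 : 13 ∣ orderOf x)
    (hy217 : 31 * 7 ∣ orderOf y) : False := by
  have d13 : 13 ∣ Nat.card R := hx13.trans (Subgroup.orderOf_dvd_natCard _ hx)
  have d217 : 31 * 7 ∣ Nat.card R := hy217.trans (Subgroup.orderOf_dvd_natCard _ hy)
  have S : SitP T n16 l16 13 R := H257.El.sitP_of tab known hT valid16 (by norm_num) (by decide +kernel) hR d13
  obtain ⟨O, hO, N, h⟩ := S.exists_top
  have hok31 : okPair n16 l16 13 31 = true := by decide +kernel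
  have hN31 := S.dvd_simple h (by norm_num) h31 hok31 ((dvd_mul_right 31 7).trans d217)
  have hna : ¬ ∀ a b : N, a * b = b * a := by
    intro hc
    rw [h.card_of_comm hc] at hN31
    exact absurd hN31 (by decide)
  obtain ⟨g, hg, hreal, -⟩ := S.exists_surv h hna [31] (by
    intro s hs
    rw [List.mem_singleton] at hs
    rw [hs]; exact hN31)
  -- the element of order 217
  obtain ⟨c, hc⟩ : ∃ c : R, orderOf c = 31 * 7 := by
    obtain ⟨k, hk⟩ := hy217
    have h0 : 0 < orderOf y := orderOf_pos y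
    have hk0 : k ≠ 0 := by
      rintro rfl
      rw [mul_zero] at hk
      omega
    refine ⟨⟨y, hy⟩ ^ k, ?_⟩
    rw [← Subgroup.orderOf_coe]
    show orderOf (y ^ k) = 31 * 7
    rw [orderOf_pow_of_dvd hk0 (by rw [hk]; exact dvd_mul_left _ _), hk]
    exact Nat.mul_div_cancel _ (Nat.pos_of_ne_zero hk0)
  have c31 : ¬ 31 ∣ Nat.card O := h.not_dvd_core (by norm_num) (by norm_num) (SitP.noR h31)
    fun _ hb hd => okPow_spec S.valid (s := 31) (by decide +kernel) (by norm_num) hb (hd.trans S.dvd_n)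
  have c7 : ¬ 7 ∣ Nat.card O := h.not_dvd_core (by norm_num) (by norm_num) (SitP.noR h7)
    fun _ hb hd => okPow_spec S.valid (s := 7) (by decide +kernel) (by norm_num) hb (hd.trans S.dvd_n)
  have i31 : ¬ 31 ∣ N.index := h.not_dvd_index (by norm_num) (by norm_num) (SitP.noR h31) (by norm_num)
  have i7 : ¬ 7 ∣ N.index := h.not_dvd_index (by norm_num) (by norm_num) (SitP.noR h7) (by norm_num)
  have p31 : (31 : ℕ).Prime := by norm_num
  have p7 : (7 : ℕ).Prime := by norm_num
  obtain ⟨z, hz⟩ := NoMul.exists_orderOf_top h hc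
    (Nat.Coprime.mul_left ((Nat.Prime.coprime_iff_not_dvd p31).2 c31) ((Nat.Prime.coprime_iff_not_dvd p7).2 c7))
    (Nat.Coprime.mul_left ((Nat.Prime.coprime_iff_not_dvd p31).2 i31) ((Nat.Prime.coprime_iff_not_dvd p7).2 i7))
  exact no217 hg hreal z hz

/-! ### the group -/

variable {F : Type} [Field F] [Fintype F]

theorem card16 (hq : Fintype.card F = 2) : Nat.card (POmega F (quadFormPlus 8 F)) = n16 := by
  have h := Cfsg.Agent.S0293.result hq 8 (by norm_num)
  rw [show Nat.gcd 4 (2 ^ 8 - 1) = 1 by decide, one_mul] at h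
  rw [h]
  decide +kernel

theorem no13_31 (hq : Fintype.card F = 2) (z : POmega F (quadFormPlus 8 F)) : orderOf z ≠ 13 * 31 := by
  refine NoMul.noOrd_POmega (nondeg_plusForm 8 F) (by simp) (coe_plusForm 8 F) (MulEquiv.refl _) hq (by norm_num)
    (by norm_num) o2_13 o2_31 (by norm_num) (by norm_num) ?_ ?_ z
  · rw [Fintype.card_sum, Fintype.card_fin]; decide
  · rw [Fintype.card_sum, Fintype.card_fin]; decide

theorem no13_7 (hq : Fintype.card F = 2) (z : POmega F (quadFormPlus 8 F)) : orderOf z ≠ 13 * 7 := by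
  refine NoMul.noOrd_POmega' (nondeg_plusForm 8 F) (by simp) (coe_plusForm 8 F) (MulEquiv.refl _) (by norm_num)
    (by norm_num) ?_ z
  intro x y hx hy hx13 hy7 hx1 hy1 hxy
  refine NoMul.no_thirteen_seven (by rw [Nat.card_eq_fintype_card]; exact hq) _ ?_ hx hy hx13 hy7 hx1 hy1 hxy
  rw [finrank_fintype_fun_eq_card, Fintype.card_sum, Fintype.card_fin]

theorem ppd_of_order {q k r : ℕ} (hr : r.Prime) (hq : 1 ≤ q) (h : orderOf ((q : ℕ) : ZMod r) = k) (hk : k ∣ r - 1)
    (hnd : ¬ r ∣ q) : Ppd q k r := by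
  refine ⟨hr, fun m => ?_, hk, hnd⟩
  rw [← Nat.modEq_iff_dvd' (Nat.one_le_pow _ _ hq), ← ZMod.natCast_eq_natCast_iff, Nat.cast_one, Nat.cast_pow, ← h,
    orderOf_dvd_iff_pow_eq_one, eq_comm]

theorem order_conj {G : Type*} [Group G] (g x : G) : orderOf (g * x * g⁻¹) = orderOf x := by
  have := MulEquiv.orderOf_eq (MulAut.conj g) x
  rwa [MulAut.conj_apply] at this

/-- odd orders and the central quotient -/
theorem dvd_orderOf_mk {G : Type*} [Group G] (hZ : ∀ z ∈ center G, z ^ 2 = 1) {x : G} {k : ℕ} (hk : Odd k)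
    (h : k ∣ orderOf x) : k ∣ orderOf (QuotientGroup.mk' (center G) x) := by
  have h1 : x ^ orderOf (QuotientGroup.mk' (center G) x) ∈ center G := by
    refine (QuotientGroup.eq_one_iff _).1 ?_
    exact (map_pow (QuotientGroup.mk' (center G)) x _).trans (pow_orderOf_eq_one _)
  have h2 := hZ _ h1
  rw [← pow_mul] at h2
  exact (Nat.Coprime.dvd_of_dvd_mul_right (Nat.coprime_two_right.2 hk) (h.trans (orderOf_dvd_of_pow_eq_one h2)))

theorem center_sq {ι : Type} [Fintype ι] [DecidableEq ι] {Q : QuadraticForm F (ι → F)} (hQ : Nondeg Q)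
    (hd : 5 ≤ Fintype.card ι) : ∀ z ∈ center (Omega F ⇑Q), z ^ 2 = 1 := by
  have hG : Cfsg.Agent.LieClassical.OrthTrans.Good Q :=
    good_of_finite hQ (by rwa [Module.finrank_fintype_fun_eq_card])
  let φ := (omegaEquiv Q).trans (MulEquiv.subgroupCongr hG.commutator_eq_E)
  intro z hz
  have h1 : φ z ∈ center (E Q) := by
    rw [Subgroup.mem_center_iff] at hz ⊢
    intro g
    obtain ⟨g', rfl⟩ := φ.surjective g
    rw [← map_mul, ← map_mul, hz]
  have h2 : (φ z) ^ 2 = 1 := by
    apply Subtype.ext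
    refine H105.Dp.sq_eq_one_of_scalar (H105.Dp.frmQ hQ) ?_ (H105.SzO.center_scalar hG _ h1)
    intro x y
    exact polar_map (E_le_O (Q := Q) (φ z).2) x y
  apply φ.injective
  rw [map_pow, h2, map_one]

/-- **`PΩ⁺₁₆(2)`** -/
theorem noTwo_sixteen (hP : S5948Stmt.{0}) (tab : OrderTable.{0}) (known : H257.El.Known.{0})
    (hq : Fintype.card F = 2) : NoTwo (POmega F (quadFormPlus 8 F)) := by
  have hpp : IsPrimePow (Fintype.card F) := Fintype.isPrimePow_card_of_field
  obtain ⟨M, hM⟩ : ∃ M, Num (Fintype.card F) (2 * 8) (2 * 7) M :=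
    H906.Cov.exists_num hpp (by norm_num) (by norm_num) (by norm_num) (by norm_num) (by norm_num)
  have hc : M.Coprime 3 := by
    have h1 := hM.prim 2 (by norm_num) (by norm_num)
    rw [hq] at h1
    exact h1
  have hs : Cfsg.Agent.H182.Sign.Sg (plusForm 8 F) 8 1 := sg_plus 8
  have h5 : 5 ≤ Fintype.card (Fin 8 ⊕ Fin 8) := by simp
  have h16 : Fintype.card (Fin 8 ⊕ Fin 8) = 16 := by simp
  obtain ⟨A, hA, ⟨i, hAi⟩, dA⟩ := exists_A (m := 8) (a := 7) (e := 1) (N := 3) rfl (by norm_num) (by norm_num)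
    (by norm_num) hM (by rw [hq]; norm_num) (by decide) (by
      rw [hq]
      intro j h1 h2
      interval_cases j; decide) hc
  obtain ⟨B, hB, -, ⟨j, hBj, hBk⟩, dB⟩ := exNB (a := 6) (e := 2) (M := 13) (N := 5) hs h5 rfl (by norm_num)
    (by norm_num) (by rw [hq]; norm_num) (by decide) (by
      rw [hq]
      intro j h1 h2
      interval_cases j <;> decide) (by rw [hq]; norm_num) (by decide) (by
      rw [hq]
      intro j h1 h2
      interval_cases j <;> decide) (by norm_num) (by norm_num)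
  have hr₁ : Ppd (Fintype.card F) 5 31 := by
    rw [hq]; exact ppd_of_order (by norm_num) (by norm_num) o2_31 (by norm_num) (by norm_num)
  have hr₂ : Ppd (Fintype.card F) 3 7 := by
    rw [hq]; exact ppd_of_order (by norm_num) (by norm_num) o2_7 (by norm_num) (by norm_num)
  obtain ⟨C, hC, hCo, ⟨P, hker⟩, dC⟩ := exPP hs h5 (c₁ := 5) (c₂ := 3) rfl (by norm_num) (by norm_num) (by decide)
    hr₁ hr₂ (by norm_num)
  have hQ : IsNondegenerateQuadraticForm ⇑(plusForm 8 F) := isNondeg (sg_plus 8).nondeg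
  have hne : Nonempty (Fin 8 ⊕ Fin 8) := ⟨Sum.inl ⟨0, by omega⟩⟩
  have og : OgO ⇑(plusForm 8 F) := fun k H hle hne g hg hn =>
    Cfsg.Agent.H558.Cov.og_o hP hQ hle hne hg hn
  obtain ⟨A', rfl⟩ : ∃ A', emb ⇑(plusForm 8 F) A' = A := by rw [← range_emb] at hA; exact hA
  obtain ⟨B', rfl⟩ : ∃ B', emb ⇑(plusForm 8 F) B' = B := by rw [← range_emb] at hB; exact hB
  obtain ⟨C', rfl⟩ : ∃ C', emb ⇑(plusForm 8 F) C' = C := by rw [← range_emb] at hC; exact hC
  have h217 : Odd (orderOf (emb ⇑(plusForm 8 F) C')) := by rw [hCo]; decide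
  obtain ⟨hAB, hAC⟩ := inc_of_data (a := 7) (b := 6) (i := i) (j := j) hQ og (by norm_num) (by norm_num)
    (Or.inr ⟨by decide, by decide⟩) (by
      intro r hr h
      rw [h16] at h
      exact (Nat.prime_dvd_prime_iff_eq hr Nat.prime_two).1 (by simpa using h)) hAi hBk
    (by rw [hBj]; decide) (by rw [hBj, Nat.card_eq_fintype_card, hq]; norm_num) dA dB dC
    (by
      intro d h0 h1 h2 h3
      rw [h16] at h1
      simp only [Set.mem_insert_iff, Set.mem_singleton_iff] at h2 h3
      omega)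
    (by
      intro d h0 h1 h2 h3
      rw [h16] at h1
      simp only [Set.mem_insert_iff, Set.mem_singleton_iff, Set.mem_ofPred_eq] at h2 h3
      obtain ⟨s, t, hs, ht, hd⟩ := h3
      omega) h217 P hker
  have hinj := emb_injective (F := F) ⇑(plusForm 8 F)
  have hZ := center_sq (F := F) (nondeg_plusForm 8 F) h5
  have hB13 : 13 ∣ orderOf B' := by
    rw [← hBj, ← orderOf_injective _ hinj B']
    exact orderOf_pow_dvd _
  have hC217 : 31 * 7 ∣ orderOf C' := by
    rw [← hCo, ← orderOf_injective _ hinj C']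
  have hB13' := dvd_orderOf_mk hZ (x := B') (by decide) hB13
  have hC217' := dvd_orderOf_mk hZ (x := C') (by decide) hC217
  have h1 := inc_map hAB (QuotientGroup.mk' (center (Omega F ⇑(plusForm 8 F)))) (QuotientGroup.mk'_surjective _)
  have h2 := inc_map hAC (QuotientGroup.mk' (center (Omega F ⇑(plusForm 8 F)))) (QuotientGroup.mk'_surjective _)
  have n31 := no13_31 hq
  have n7 := no13_7 hq
  have hcard := card16 hq
  rw [← coe_plusForm] at n31 n7 hcard ⊢
  refine noTwo_of_three h1 (fun R hR => ?_) h2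
  by_contra hcon
  rw [not_or] at hcon
  obtain ⟨h3, h4⟩ := hcon
  unfold Av at h3 h4
  push Not at h3 h4
  obtain ⟨g, hg⟩ := h3
  obtain ⟨g', hg'⟩ := h4
  exact false_of_mem tab known hcard n31 n7 hR hg hg' (by rw [order_conj]; exact hB13')
    (by rw [order_conj]; exact hC217')

end Cfsg.Agent.H383.Cov.Six
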